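import Mathlib

/-!
# Cyclic odd `p'`-groups acting on a non-abelian group of order `p ^ 3`

Abstract core of package `PKI2c2` of the S1440 project (B&G 15.8): a cyclic group `K` of odd order
prime to `p` normalizing a non-abelian group `P` of order `p ^ 3`, centralizing `Z(P)` and with
`C_P(k) ≤ Z(P)` for all `k ≠ 1`, has exponent dividing `p - 1` or order dividing `p + 1`.
-/

set_option autoImplicit false

namespace Cfsg.Agent.Lib.Helper72.BG40

universe u

/-! ### A counting lemma -/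

theorem card_dvd_of_classes {α : Type*} [DecidableEq α] (S : Finset α) (R : α → α → Prop)
    [DecidableRel R] (m : ℕ) (hrefl : ∀ a ∈ S, R a a)
    (hsymm : ∀ a ∈ S, ∀ b ∈ S, R a b → R b a)
    (htrans : ∀ a ∈ S, ∀ b ∈ S, ∀ c ∈ S, R a b → R b c → R a c)
    (hm : ∀ a ∈ S, (S.filter (R a)).card = m) : m ∣ S.card := by
  classical
  set f : α → Finset α := fun a => S.filter (R a) with hf
  have h1 := Finset.card_eq_sum_card_fiberwise (f := f) (s := S) (t := S.image f)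
    (fun x hx => Finset.mem_image_of_mem f hx)
  have h2 : ∀ t ∈ S.image f, (S.filter (fun a => f a = t)).card = m := by
    intro t ht
    obtain ⟨a, ha, rfl⟩ := Finset.mem_image.1 ht
    rw [← hm a ha]
    congr 1
    ext b
    simp only [Finset.mem_filter, hf]
    constructor
    · rintro ⟨hb, hfb⟩
      refine ⟨hb, ?_⟩
      have : b ∈ S.filter (R b) := Finset.mem_filter.2 ⟨hb, hrefl b hb⟩
      rw [hfb] at this
      exact (Finset.mem_filter.1 this).2
    · rintro ⟨hb, hab⟩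
      refine ⟨hb, ?_⟩
      ext c
      simp only [Finset.mem_filter]
      constructor
      · rintro ⟨hc, hbc⟩; exact ⟨hc, htrans a ha b hb c hc hab hbc⟩
      · rintro ⟨hc, hac⟩; exact ⟨hc, htrans b hb a ha c hc (hsymm a ha b hb hab) hac⟩
  rw [h1, Finset.sum_const_nat h2]
  exact dvd_mul_left _ _

/-! ### The class two identity -/

theorem pow_mul_pow_of_class_two {G : Type*} [Group G] {x y c : G} (h : x * y = c * y * x)
    (hcx : Commute c x) (hcy : Commute c y) (i j : ℕ) :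
    x ^ i * y ^ j = c ^ (i * j) * y ^ j * x ^ i := by
  have step1 : ∀ j : ℕ, x * y ^ j = c ^ j * y ^ j * x := by
    intro j
    induction j with
    | zero => simp
    | succ j ih =>
      calc x * y ^ (j + 1) = (x * y ^ j) * y := by rw [pow_succ, mul_assoc]
        _ = c ^ j * y ^ j * (x * y) := by rw [ih]; simp only [mul_assoc]
        _ = c ^ j * y ^ j * (c * y * x) := by rw [h]
        _ = c ^ j * (y ^ j * c) * y * x := by simp only [mul_assoc]
        _ = c ^ j * (c * y ^ j) * y * x := by rw [(hcy.pow_right j).eq]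
        _ = c ^ (j + 1) * y ^ (j + 1) * x := by rw [pow_succ, pow_succ]; simp only [mul_assoc]
  induction i with
  | zero => simp
  | succ i ih =>
    calc x ^ (i + 1) * y ^ j = x ^ i * (x * y ^ j) := by rw [pow_succ, mul_assoc]
      _ = x ^ i * (c ^ j * y ^ j * x) := by rw [step1]
      _ = (x ^ i * c ^ j) * y ^ j * x := by simp only [mul_assoc]
      _ = (c ^ j * x ^ i) * y ^ j * x := by rw [((hcx.pow_left j).pow_right i).eq]
      _ = c ^ j * (x ^ i * y ^ j) * x := by simp only [mul_assoc]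
      _ = c ^ j * (c ^ (i * j) * y ^ j * x ^ i) * x := by rw [ih]
      _ = c ^ ((i + 1) * j) * y ^ j * x ^ (i + 1) := by
          rw [add_mul, one_mul, add_comm, pow_add, pow_succ]; simp only [mul_assoc]

section Main

variable {G : Type u} [Group G]

theorem pow_card_of_mem [Finite G] {H : Subgroup G} {g : G} (hg : g ∈ H) :
    g ^ Nat.card H = 1 := by
  have := pow_card_eq_one' (G := H) (x := ⟨g, hg⟩)
  exact congrArg Subtype.val this

theorem card_filter_mem [Fintype G] (H : Subgroup G) [DecidablePred (· ∈ H)] :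
    (Finset.univ.filter (· ∈ H)).card = Nat.card H :=
  (Nat.subtype_card (Finset.univ.filter (· ∈ H)) (by simp)).symm

/-- The centre of `P`, as a subgroup of `G`. -/
def zc (P : Subgroup G) : Subgroup G := P ⊓ Subgroup.centralizer (P : Set G)

theorem mem_zc {P : Subgroup G} {a : G} : a ∈ zc P ↔ a ∈ P ∧ ∀ b ∈ P, a * b = b * a := by
  unfold zc
  rw [Subgroup.mem_inf, Subgroup.mem_centralizer_iff]
  constructor
  · rintro ⟨h1, h2⟩; exact ⟨h1, fun b hb => (h2 b hb).symm⟩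
  · rintro ⟨h1, h2⟩; exact ⟨h1, fun b hb => (h2 b hb).symm⟩

/-- Structure of a non-abelian group of order `p ^ 3`. -/
theorem structure_p3 [Finite G] (p : ℕ) [hp : Fact p.Prime] (P : Subgroup G)
    (hP : Nat.card P = p ^ 3) (hna : ¬ IsMulCommutative P) :
    Nat.card (zc P) = p ∧ (∀ a ∈ P, ∀ b ∈ P, a * b * a⁻¹ * b⁻¹ ∈ zc P) ∧
      (∀ a ∈ P, a ^ p ∈ zc P) := by
  classical
  have hzc : ∀ x : P, x ∈ Subgroup.center P ↔ (x : G) ∈ zc P := by
    intro x
    rw [Subgroup.mem_center_iff, mem_zc]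
    constructor
    · intro h
      refine ⟨x.2, fun b hb => ?_⟩
      have := h ⟨b, hb⟩
      exact (congrArg Subtype.val this).symm
    · rintro ⟨_, h⟩ g
      exact Subtype.ext (h g g.2).symm
  have hcard : Nat.card (zc P) = Nat.card (Subgroup.center P) := by
    refine Nat.card_congr ⟨fun x => ⟨⟨x.1, (mem_zc.1 x.2).1⟩, (hzc _).2 x.2⟩,
      fun x => ⟨x.1.1, (hzc x.1).1 x.2⟩, fun x => rfl, fun x => rfl⟩
  obtain ⟨k, hk0, hk⟩ := IsPGroup.card_center_eq_prime_pow (p := p) (n := 3) hP (by norm_num)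
  have hlag := Subgroup.card_eq_card_quotient_mul_card_subgroup (Subgroup.center P)
  rw [hP, hk] at hlag
  have hk3 : k ≤ 3 :=
    (Nat.pow_dvd_pow_iff_le_right hp.1.one_lt).1 ⟨_, by rw [hlag]; ring⟩
  have hQ : Nat.card (P ⧸ Subgroup.center P) = p ^ (3 - k) := by
    have : p ^ 3 = p ^ (3 - k) * p ^ k := by rw [← pow_add]; congr 1; omega
    rw [this] at hlag
    exact (Nat.eq_of_mul_eq_mul_right (pow_pos hp.1.pos k) hlag).symm
  have hcyc : IsCyclic (P ⧸ Subgroup.center P) → False := by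
    intro hc
    apply hna
    exact MonoidHom.isMulCommutative_of_isCyclic_of_ker_le_center
      (QuotientGroup.mk' (Subgroup.center P)) (by rw [QuotientGroup.ker_mk'])
  have hk1 : k = 1 := by
    interval_cases k
    · rfl
    · exfalso
      apply hcyc
      have h1 : Nat.card (P ⧸ Subgroup.center P) = p := by simpa using hQ
      exact isCyclic_of_prime_card h1
    · exfalso
      apply hcyc
      have h1 : Nat.card (P ⧸ Subgroup.center P) = 1 := by simpa using hQ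
      have := (Nat.card_eq_one_iff_unique.1 h1).1
      exact isCyclic_of_subsingleton
  subst hk1
  have hQ2 : Nat.card (P ⧸ Subgroup.center P) = p ^ 2 := by simpa using hQ
  have hab : ∀ a b : P ⧸ Subgroup.center P, a * b = b * a := by
    have := IsPGroup.isMulCommutative_of_card_eq_prime_sq hQ2
    exact fun a b => mul_comm' a b
  refine ⟨by rw [hcard, hk, pow_one], ?_, ?_⟩
  · intro a ha b hb
    have h1 : ((⟨a, ha⟩ * ⟨b, hb⟩ * ⟨a, ha⟩⁻¹ * ⟨b, hb⟩⁻¹ : P) : P ⧸ Subgroup.center P) = 1 := by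
      rw [QuotientGroup.mk_mul, QuotientGroup.mk_mul, QuotientGroup.mk_mul,
        hab (⟨a, ha⟩ : P) (⟨b, hb⟩ : P), QuotientGroup.mk_inv, QuotientGroup.mk_inv]
      group
    have h2 := (QuotientGroup.eq_one_iff _).1 h1
    exact (hzc _).1 h2
  · intro a ha
    have h0 : ∀ q : P ⧸ Subgroup.center P, q ^ p = 1 := by
      intro q
      have h1 : orderOf q ∣ p ^ 2 := hQ2 ▸ orderOf_dvd_natCard q
      obtain ⟨j, hj2, hj⟩ := (Nat.dvd_prime_pow hp.1).1 h1
      have hj2' : j ≠ 2 := by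
        rintro rfl
        exact hcyc (isCyclic_of_orderOf_eq_card q (by rw [hj, hQ2]))
      have : orderOf q ∣ p := by
        rw [hj]
        have : j ≤ 1 := by omega
        exact pow_dvd_pow p this |>.trans (by rw [pow_one])
      exact orderOf_dvd_iff_pow_eq_one.1 this
    have h1 : (((⟨a, ha⟩ : P) ^ p : P) : P ⧸ Subgroup.center P) = 1 := by
      rw [QuotientGroup.mk_pow]; exact h0 _
    have h2 := (QuotientGroup.eq_one_iff _).1 h1
    exact (hzc _).1 h2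


/-- The configuration: `K` (commutative, odd order prime to `p`) normalizes the non-abelian group
`P` of order `p ^ 3`, centralizes `Z(P)`, and `C_P(k) ≤ Z(P)` for `k ≠ 1`. -/
structure Cfg (p : ℕ) (P K : Subgroup G) : Prop where
  hp : p.Prime
  hZp : Nat.card (zc P) = p
  hP : Nat.card P = p ^ 3
  hcomm : ∀ a ∈ P, ∀ b ∈ P, a * b * a⁻¹ * b⁻¹ ∈ zc P
  hpow : ∀ a ∈ P, a ^ p ∈ zc P
  hKn : ∀ k ∈ K, ∀ a ∈ P, k * a * k⁻¹ ∈ P
  hKcomm : ∀ k ∈ K, ∀ l ∈ K, k * l = l * k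
  hKodd : Odd (Nat.card K)
  hKcop : (Nat.card K).Coprime p
  hfix : ∀ k ∈ K, k ≠ 1 → ∀ a ∈ P, k * a = a * k → a ∈ zc P
  hZ : ∀ k ∈ K, ∀ a ∈ zc P, k * a = a * k

variable [Finite G] {p : ℕ} {P K : Subgroup G}

omit [Finite G] in
theorem Cfg.conj_zc (h : Cfg p P K) {k : G} (hk : k ∈ K) {w : G} (hw : w ∈ zc P) :
    k * w * k⁻¹ = w := by
  rw [h.hZ k hk w hw, mul_inv_cancel_right]

omit [Finite G] in
theorem Cfg.zc_of_conj (h : Cfg p P K) {k : G} (hk : k ∈ K) {a : G}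
    (ha : k * a * k⁻¹ ∈ zc P) : a ∈ zc P := by
  have := h.conj_zc (K.inv_mem hk) ha
  have e : k⁻¹ * (k * a * k⁻¹) * k⁻¹⁻¹ = a := by group
  rw [e] at this
  rw [this]; exact ha

theorem Cfg.fixed (h : Cfg p P K) {k : G} (hk : k ∈ K) {a : G} {z : G} (hz : z ∈ zc P)
    (e : k * a * k⁻¹ = a * z) : z = 1 := by
  have key : ∀ m : ℕ, k ^ m * a * (k ^ m)⁻¹ = a * z ^ m := by
    intro m
    induction m with
    | zero => simp
    | succ m ih =>
      have hzm : z ^ m ∈ zc P := (zc P).pow_mem hz m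
      calc k ^ (m + 1) * a * (k ^ (m + 1))⁻¹ = k * (k ^ m * a * (k ^ m)⁻¹) * k⁻¹ := by
            rw [pow_succ', mul_inv_rev]; simp only [mul_assoc]
        _ = k * (a * z ^ m) * k⁻¹ := by rw [ih]
        _ = (k * a * k⁻¹) * (k * z ^ m * k⁻¹) := by group
        _ = a * z * z ^ m := by rw [e, h.conj_zc hk hzm]
        _ = a * z ^ (m + 1) := by rw [pow_succ', mul_assoc]
  have h1 : z ^ Nat.card K = 1 := by
    have := key (Nat.card K)
    rw [pow_card_of_mem hk] at this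
    simpa using this.symm
  have h2 : z ^ (p ^ 3) = 1 := by
    rw [← h.hP]; exact pow_card_of_mem (mem_zc.1 hz).1
  have h3 : orderOf z ∣ Nat.card K := orderOf_dvd_of_pow_eq_one h1
  have h4 : orderOf z ∣ p ^ 3 := orderOf_dvd_of_pow_eq_one h2
  have h5 : orderOf z = 1 :=
    Nat.eq_one_of_dvd_coprimes (Nat.Coprime.pow_right 3 h.hKcop) h3 h4
  exact orderOf_eq_one_iff.1 h5

theorem Cfg.comm_of (h : Cfg p P K) {k : G} (hk : k ∈ K) {a : G} (ha : a ∈ P)
    (haZ : a ∉ zc P) {z : G} (hz : z ∈ zc P) {N : ℕ} (hN : N ≡ 1 [MOD p])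
    (e : k * a * k⁻¹ = a ^ N * z) : k = 1 := by
  have hN1 : 1 ≤ N := by
    rcases Nat.eq_zero_or_pos N with h0 | h0
    · exfalso
      rw [h0] at hN
      have : p ∣ 1 := (Nat.modEq_zero_iff_dvd.1 hN.symm)
      exact h.hp.one_lt.ne' (Nat.dvd_one.1 this)
    · exact h0
  have hd : p ∣ N - 1 := (Nat.modEq_iff_dvd' hN1).1 hN.symm
  obtain ⟨t, ht⟩ := hd
  have hNt : N = 1 + p * t := by omega
  have e2 : k * a * k⁻¹ = a * ((a ^ p) ^ t * z) := by
    rw [e, hNt, pow_add, pow_one, pow_mul, mul_assoc]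
  have hw : (a ^ p) ^ t * z ∈ zc P := mul_mem (pow_mem (h.hpow a ha) t) hz
  have h1 := h.fixed hk hw e2
  rw [h1, mul_one] at e2
  by_contra hk1
  apply haZ
  exact h.hfix k hk hk1 a ha (mul_inv_eq_iff_eq_mul.1 e2)

theorem Cfg.card_cent (h : Cfg p P K) {a : G} (ha : a ∈ P) (haZ : a ∉ zc P) :
    Nat.card (P ⊓ Subgroup.centralizer ({a} : Set G) : Subgroup G) = p ^ 2 := by
  set C := P ⊓ Subgroup.centralizer ({a} : Set G) with hC
  have hmemC : ∀ b, b ∈ C ↔ b ∈ P ∧ a * b = b * a := by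
    intro b
    rw [hC, Subgroup.mem_inf, Subgroup.mem_centralizer_singleton_iff]
    constructor
    · rintro ⟨h1, h2⟩; exact ⟨h1, h2.symm⟩
    · rintro ⟨h1, h2⟩; exact ⟨h1, h2.symm⟩
  have hZC : zc P ≤ C := fun w hw =>
    (hmemC w).2 ⟨(mem_zc.1 hw).1, ((mem_zc.1 hw).2 a ha).symm⟩
  have haC : a ∈ C := (hmemC a).2 ⟨ha, rfl⟩
  have hCP : C ≤ P := inf_le_left
  have h1 : Nat.card C ∣ p ^ 3 := h.hP ▸ Subgroup.card_dvd_of_le hCP
  obtain ⟨j, hj3, hj⟩ := (Nat.dvd_prime_pow h.hp).1 h1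
  have h2 : p ∣ Nat.card C := h.hZp ▸ Subgroup.card_dvd_of_le hZC
  have hj0 : j ≠ 0 := by
    rintro rfl
    rw [hj, pow_zero] at h2
    exact h.hp.one_lt.ne' (Nat.dvd_one.1 h2)
  have hj1 : j ≠ 1 := by
    rintro rfl
    have : zc P = C := Subgroup.eq_of_le_of_card_ge hZC (by rw [hj, h.hZp, pow_one])
    exact haZ (this ▸ haC)
  have hj3' : j ≠ 3 := by
    rintro rfl
    have : C = P := Subgroup.eq_of_le_of_card_ge hCP (by rw [hj, h.hP])
    apply haZ
    rw [mem_zc]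
    refine ⟨ha, fun b hb => ?_⟩
    have hb' : b ∈ C := this ▸ hb
    exact ((hmemC b).1 hb').2
  have : j = 2 := by omega
  rw [hj, this]

theorem Cfg.line (h : Cfg p P K) {a : G} (ha : a ∈ P) (haZ : a ∉ zc P) {b : G} (hb : b ∈ P)
    (hab : a * b = b * a) : ∃ i : ℕ, ∃ z ∈ zc P, b = a ^ i * z := by
  classical
  set C := P ⊓ Subgroup.centralizer ({a} : Set G) with hC
  have hmemC : ∀ b, b ∈ C ↔ b ∈ P ∧ a * b = b * a := by
    intro b
    rw [hC, Subgroup.mem_inf, Subgroup.mem_centralizer_singleton_iff]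
    constructor
    · rintro ⟨h1, h2⟩; exact ⟨h1, h2.symm⟩
    · rintro ⟨h1, h2⟩; exact ⟨h1, h2.symm⟩
  have hzP : Subgroup.zpowers a ≤ P := (Subgroup.zpowers_le).2 ha
  let T : Subgroup G :=
    { carrier := {g | ∃ y ∈ Subgroup.zpowers a, ∃ z ∈ zc P, g = y * z}
      one_mem' := ⟨1, one_mem _, 1, one_mem _, by simp⟩
      mul_mem' := by
        rintro _ _ ⟨y, hy, z, hz, rfl⟩ ⟨y', hy', z', hz', rfl⟩
        refine ⟨y * y', mul_mem hy hy', z * z', mul_mem hz hz', ?_⟩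
        have := (mem_zc.1 hz).2 y' (hzP hy')
        calc y * z * (y' * z') = y * (z * y') * z' := by simp only [mul_assoc]
          _ = y * (y' * z) * z' := by rw [this]
          _ = y * y' * (z * z') := by simp only [mul_assoc]
      inv_mem' := by
        rintro _ ⟨y, hy, z, hz, rfl⟩
        refine ⟨y⁻¹, inv_mem hy, z⁻¹, inv_mem hz, ?_⟩
        have : Commute z y := (mem_zc.1 hz).2 y (hzP hy)
        rw [mul_inv_rev]
        exact (this.inv_inv).eq }
  have hmemT : ∀ g, g ∈ T ↔ ∃ y ∈ Subgroup.zpowers a, ∃ z ∈ zc P, g = y * z := fun g => Iff.rfl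
  have hTC : T ≤ C := by
    rintro _ ⟨y, hy, z, hz, rfl⟩
    rw [hmemC]
    refine ⟨mul_mem (hzP hy) (mem_zc.1 hz).1, ?_⟩
    obtain ⟨n, rfl⟩ := Subgroup.mem_zpowers_iff.1 hy
    have h1 : Commute a (a ^ n) := (Commute.refl a).zpow_right n
    have h2 : Commute a z := ((mem_zc.1 hz).2 a ha).symm
    exact (h1.mul_right h2).eq
  have hZT : zc P ≤ T := fun w hw => ⟨1, one_mem _, w, hw, by simp⟩
  have haT : a ∈ T := ⟨a, Subgroup.mem_zpowers a, 1, one_mem _, by simp⟩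
  have hcC := h.card_cent ha haZ
  have h1 : Nat.card T ∣ p ^ 2 := hcC ▸ Subgroup.card_dvd_of_le hTC
  obtain ⟨j, hj2, hj⟩ := (Nat.dvd_prime_pow h.hp).1 h1
  have h2 : p ∣ Nat.card T := h.hZp ▸ Subgroup.card_dvd_of_le hZT
  have hj0 : j ≠ 0 := by
    rintro rfl
    rw [hj, pow_zero] at h2
    exact h.hp.one_lt.ne' (Nat.dvd_one.1 h2)
  have hj1 : j ≠ 1 := by
    rintro rfl
    have : zc P = T := Subgroup.eq_of_le_of_card_ge hZT (by rw [hj, h.hZp, pow_one])
    exact haZ (this ▸ haT)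
  have hj2' : j = 2 := by omega
  have hTC' : T = C := Subgroup.eq_of_le_of_card_ge hTC (by rw [hj, hj2', hcC])
  have hbT : b ∈ T := hTC' ▸ (hmemC b).2 ⟨hb, hab⟩
  obtain ⟨y, hy, z, hz, rfl⟩ := hbT
  obtain ⟨i, rfl⟩ := (Submonoid.mem_powers_iff _ _).1 (mem_powers_iff_mem_zpowers.2 hy)
  exact ⟨i, z, hz, rfl⟩

theorem Cfg.comm_trans (h : Cfg p P K) {a : G} (ha : a ∈ P) (haZ : a ∉ zc P) {b c : G}
    (hb : b ∈ P) (hc : c ∈ P) (hab : Commute a b) (hac : Commute a c) : Commute b c := by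
  obtain ⟨j, w, hw, rfl⟩ := h.line ha haZ hc hac.eq
  have h1 : Commute b (a ^ j) := hab.symm.pow_right j
  have h2 : Commute b w := ((mem_zc.1 hw).2 b hb).symm
  exact h1.mul_right h2

theorem Cfg.all_norm (h : Cfg p P K) {k₁ : G} (hk₁ : k₁ ∈ K) (hk₁1 : k₁ ≠ 1) {a : G}
    (ha : a ∈ P) (haZ : a ∉ zc P) (hc : Commute a (k₁ * a * k₁⁻¹)) :
    ∀ k ∈ K, Commute a (k * a * k⁻¹) := by
  intro k₂ hk₂
  by_contra hnc
  obtain ⟨i, z, hz, e⟩ := h.line ha haZ (h.hKn k₁ hk₁ a ha) hc.eq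
  set a' := k₂ * a * k₂⁻¹ with ha'
  have ha'P : a' ∈ P := h.hKn k₂ hk₂ a ha
  have e' : k₁ * a' * k₁⁻¹ = a' ^ i * z := by
    have hkk : k₁ * k₂ = k₂ * k₁ := h.hKcomm k₁ hk₁ k₂ hk₂
    have hkk' : k₂⁻¹ * k₁⁻¹ = k₁⁻¹ * k₂⁻¹ := by rw [← mul_inv_rev, ← mul_inv_rev, hkk]
    calc k₁ * a' * k₁⁻¹ = (k₁ * k₂) * a * (k₂⁻¹ * k₁⁻¹) := by rw [ha']; simp only [mul_assoc]
      _ = (k₂ * k₁) * a * (k₁⁻¹ * k₂⁻¹) := by rw [hkk, hkk']
      _ = k₂ * (k₁ * a * k₁⁻¹) * k₂⁻¹ := by simp only [mul_assoc]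
      _ = k₂ * (a ^ i * z) * k₂⁻¹ := by rw [e]
      _ = (k₂ * a * k₂⁻¹) ^ i * (k₂ * z * k₂⁻¹) := by rw [conj_pow]; group
      _ = a' ^ i * z := by rw [h.conj_zc hk₂ hz]
  set c := a * a' * a⁻¹ * a'⁻¹ with hc_def
  have hcZ : c ∈ zc P := h.hcomm a ha a' ha'P
  have hrel : a * a' = c * a' * a := by rw [hc_def]; group
  have hc1 : c ≠ 1 := by
    intro h1
    apply hnc
    rw [h1, one_mul] at hrel
    exact hrel
  have hca : Commute c a := (mem_zc.1 hcZ).2 a ha
  have hca' : Commute c a' := (mem_zc.1 hcZ).2 a' ha'P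
  have hid := pow_mul_pow_of_class_two hrel hca hca' i i
  have hconj : (k₁ * a * k₁⁻¹) * (k₁ * a' * k₁⁻¹) =
      (k₁ * c * k₁⁻¹) * (k₁ * a' * k₁⁻¹) * (k₁ * a * k₁⁻¹) := by
    calc (k₁ * a * k₁⁻¹) * (k₁ * a' * k₁⁻¹) = k₁ * (a * a') * k₁⁻¹ := by group
      _ = k₁ * (c * a' * a) * k₁⁻¹ := by rw [← hrel]
      _ = _ := by group
  rw [e, e', h.conj_zc hk₁ hcZ] at hconj
  have hz1 : Commute z (a' ^ i) := (mem_zc.1 hz).2 _ (P.pow_mem ha'P i)
  have hz2 : Commute z (a ^ i) := (mem_zc.1 hz).2 _ (P.pow_mem ha i)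
  have h5 : a ^ i * a' ^ i = c * a' ^ i * a ^ i := by
    have l : a ^ i * z * (a' ^ i * z) = a ^ i * a' ^ i * (z * z) := by
      calc a ^ i * z * (a' ^ i * z) = a ^ i * (z * a' ^ i) * z := by simp only [mul_assoc]
        _ = a ^ i * (a' ^ i * z) * z := by rw [hz1.eq]
        _ = _ := by simp only [mul_assoc]
    have r : c * (a' ^ i * z) * (a ^ i * z) = c * a' ^ i * a ^ i * (z * z) := by
      calc c * (a' ^ i * z) * (a ^ i * z) = c * a' ^ i * (z * a ^ i) * z := by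
            simp only [mul_assoc]
        _ = c * a' ^ i * (a ^ i * z) * z := by rw [hz2.eq]
        _ = _ := by simp only [mul_assoc]
    rw [l, r] at hconj
    exact mul_right_cancel hconj
  rw [hid] at h5
  have h6 : c ^ (i * i) = c ^ 1 := by
    rw [pow_one]; exact mul_right_cancel (mul_right_cancel h5)
  have hco : orderOf c = p := by
    have : Fact p.Prime := ⟨h.hp⟩
    refine orderOf_eq_prime ?_ hc1
    rw [← h.hZp]; exact pow_card_of_mem hcZ
  have h7 : i * i ≡ 1 [MOD p] := by rw [← hco]; exact pow_eq_pow_iff_modEq.1 h6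
  have e2 : (k₁ * k₁) * a * (k₁ * k₁)⁻¹ = a ^ (i * i) * (z ^ i * z) := by
    calc (k₁ * k₁) * a * (k₁ * k₁)⁻¹ = k₁ * (k₁ * a * k₁⁻¹) * k₁⁻¹ := by group
      _ = k₁ * (a ^ i * z) * k₁⁻¹ := by rw [e]
      _ = (k₁ * a * k₁⁻¹) ^ i * (k₁ * z * k₁⁻¹) := by rw [conj_pow]; group
      _ = (a ^ i * z) ^ i * z := by rw [e, h.conj_zc hk₁ hz]
      _ = a ^ (i * i) * (z ^ i * z) := by
          rw [(show Commute (a ^ i) z from hz2.symm).mul_pow, ← pow_mul, mul_assoc]
  have h8 := h.comm_of (K.mul_mem hk₁ hk₁) ha haZ (mul_mem (pow_mem hz i) hz) h7 e2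
  have hd : orderOf k₁ ∣ 2 := orderOf_dvd_of_pow_eq_one (by rw [pow_two]; exact h8)
  have hd' : orderOf k₁ ∣ Nat.card K := orderOf_dvd_of_pow_eq_one (pow_card_of_mem hk₁)
  rcases (Nat.dvd_prime Nat.prime_two).1 hd with h9 | h9
  · exact hk₁1 (orderOf_eq_one_iff.1 h9)
  · rw [h9] at hd'
    exact (Nat.not_even_iff_odd.2 h.hKodd) (even_iff_two_dvd.2 hd')

theorem Cfg.pow_pred (h : Cfg p P K) {a : G} (ha : a ∈ P) (haZ : a ∉ zc P)
    (hall : ∀ k ∈ K, Commute a (k * a * k⁻¹)) : ∀ k ∈ K, k ^ (p - 1) = 1 := by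
  intro k hk
  obtain ⟨i, z, hz, e⟩ := h.line ha haZ (h.hKn k hk a ha) (hall k hk).eq
  have hpi : ¬ p ∣ i := by
    rintro ⟨t, rfl⟩
    apply haZ
    apply h.zc_of_conj hk
    rw [e, pow_mul]
    exact mul_mem (pow_mem (h.hpow a ha) t) hz
  have hz2 : Commute (a ^ i) z := ((mem_zc.1 hz).2 _ (P.pow_mem ha i)).symm
  have key : ∀ m : ℕ, ∃ w ∈ zc P, k ^ m * a * (k ^ m)⁻¹ = a ^ (i ^ m) * w := by
    intro m
    induction m with
    | zero => exact ⟨1, one_mem _, by simp⟩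
    | succ m ih =>
      obtain ⟨w, hw, ew⟩ := ih
      refine ⟨z ^ (i ^ m) * w, mul_mem (pow_mem hz _) hw, ?_⟩
      calc k ^ (m + 1) * a * (k ^ (m + 1))⁻¹ = k * (k ^ m * a * (k ^ m)⁻¹) * k⁻¹ := by
            rw [pow_succ', mul_inv_rev]; simp only [mul_assoc]
        _ = k * (a ^ (i ^ m) * w) * k⁻¹ := by rw [ew]
        _ = (k * a * k⁻¹) ^ (i ^ m) * (k * w * k⁻¹) := by rw [conj_pow]; group
        _ = (a ^ i * z) ^ (i ^ m) * w := by rw [e, h.conj_zc hk hw]
        _ = a ^ (i ^ (m + 1)) * (z ^ (i ^ m) * w) := by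
            rw [hz2.mul_pow, ← pow_mul, ← pow_succ', mul_assoc]
  obtain ⟨w, hw, ew⟩ := key (p - 1)
  have hF : i ^ (p - 1) ≡ 1 [MOD p] := by
    have := Nat.ModEq.pow_totient ((Nat.Prime.coprime_iff_not_dvd h.hp).2 hpi).symm
    rwa [Nat.totient_prime h.hp] at this
  exact h.comm_of (K.pow_mem hk _) ha haZ hw hF ew


theorem Cfg.card_dvd (h : Cfg p P K)
    (hI : ∀ k ∈ K, k ≠ 1 → ∀ a ∈ P, a ∉ zc P → ¬ Commute a (k * a * k⁻¹)) :
    Nat.card K ∣ p + 1 := by
  classical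
  have : Fintype G := Fintype.ofFinite G
  let X : Finset G := Finset.univ.filter (fun g => g ∈ P ∧ g ∉ zc P)
  let R : G → G → Prop := fun a b => ∃ k ∈ K, Commute (k * a * k⁻¹) b
  have hmemX : ∀ g, g ∈ X ↔ g ∈ P ∧ g ∉ zc P := by intro g; simp [X]
  have hconjX : ∀ k ∈ K, ∀ a ∈ X, k * a * k⁻¹ ∈ X := by
    intro k hk a ha
    rw [hmemX] at ha ⊢
    exact ⟨h.hKn k hk a ha.1, fun hc => ha.2 (h.zc_of_conj hk hc)⟩
  have hp2 : p < p ^ 2 := by
    have := h.hp.one_lt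
    nlinarith
  have hZf : (Finset.univ.filter (· ∈ zc P)).card = p := by rw [card_filter_mem, h.hZp]
  have hdvd : Nat.card K * (p ^ 2 - p) ∣ X.card := by
    apply card_dvd_of_classes X R
    · intro a _
      exact ⟨1, one_mem _, by simp⟩
    · rintro a ha b hb ⟨k, hk, hc⟩
      refine ⟨k⁻¹, inv_mem hk, ?_⟩
      have e := hc.eq
      show k⁻¹ * b * k⁻¹⁻¹ * a = a * (k⁻¹ * b * k⁻¹⁻¹)
      calc k⁻¹ * b * k⁻¹⁻¹ * a = k⁻¹ * (b * (k * a * k⁻¹)) * k := by group
        _ = k⁻¹ * (k * a * k⁻¹ * b) * k := by rw [e]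
        _ = _ := by group
    · rintro a ha b hb c hc ⟨k, hk, h1⟩ ⟨l, hl, h2⟩
      refine ⟨l * k, mul_mem hl hk, ?_⟩
      have hb' : l * b * l⁻¹ ∈ X := hconjX l hl b hb
      have ha' : l * (k * a * k⁻¹) * l⁻¹ ∈ P :=
        h.hKn l hl _ (h.hKn k hk a ((hmemX a).1 ha).1)
      have h3 : Commute (l * b * l⁻¹) (l * (k * a * k⁻¹) * l⁻¹) := by
        have e := h1.eq
        show l * b * l⁻¹ * (l * (k * a * k⁻¹) * l⁻¹) = l * (k * a * k⁻¹) * l⁻¹ * (l * b * l⁻¹)
        calc l * b * l⁻¹ * (l * (k * a * k⁻¹) * l⁻¹) = l * (b * (k * a * k⁻¹)) * l⁻¹ := by group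
          _ = l * (k * a * k⁻¹ * b) * l⁻¹ := by rw [e]
          _ = _ := by group
      have h4 := h.comm_trans ((hmemX _).1 hb').1 ((hmemX _).1 hb').2 ha' ((hmemX c).1 hc).1 h3 h2
      have e : l * k * a * (l * k)⁻¹ = l * (k * a * k⁻¹) * l⁻¹ := by group
      rw [e]; exact h4
    · intro a ha
      obtain ⟨haP, haZ⟩ := (hmemX a).1 ha
      let Kf : Finset G := Finset.univ.filter (· ∈ K)
      let D : Finset G := Finset.univ.filter (fun b => (b ∈ P ∧ a * b = b * a) ∧ b ∉ zc P)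
      have hmemD : ∀ b, b ∈ D ↔ (b ∈ P ∧ a * b = b * a) ∧ b ∉ zc P := by intro b; simp [D]
      have hmemK : ∀ k, k ∈ Kf ↔ k ∈ K := by intro k; simp [Kf]
      have hKf : Kf.card = Nat.card K := card_filter_mem K
      have hD : D.card = p ^ 2 - p := by
        set C := P ⊓ Subgroup.centralizer ({a} : Set G) with hC
        have hmemC : ∀ b, b ∈ C ↔ b ∈ P ∧ a * b = b * a := by
          intro b
          rw [hC, Subgroup.mem_inf, Subgroup.mem_centralizer_singleton_iff]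
          constructor
          · rintro ⟨h1, h2⟩; exact ⟨h1, h2.symm⟩
          · rintro ⟨h1, h2⟩; exact ⟨h1, h2.symm⟩
        have hCf : (Finset.univ.filter (· ∈ C)).card = p ^ 2 := by
          rw [card_filter_mem, h.card_cent haP haZ]
        have hsub : (Finset.univ.filter (· ∈ zc P)) ⊆ (Finset.univ.filter (· ∈ C)) := by
          intro w hw
          simp only [Finset.mem_filter, Finset.mem_univ, true_and] at hw ⊢
          exact (hmemC w).2 ⟨(mem_zc.1 hw).1, ((mem_zc.1 hw).2 a haP).symm⟩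
        have hDe : D = (Finset.univ.filter (· ∈ C)) \ (Finset.univ.filter (· ∈ zc P)) := by
          ext b
          simp only [hmemD, Finset.mem_sdiff, Finset.mem_filter, Finset.mem_univ, true_and, hmemC]
        rw [hDe, Finset.card_sdiff_of_subset hsub, hCf, hZf]
      have himg : X.filter (R a) = (Kf ×ˢ D).image (fun kb => kb.1 * kb.2 * kb.1⁻¹) := by
        ext b
        simp only [Finset.mem_filter, Finset.mem_image, Finset.mem_product, Prod.exists]
        constructor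
        · rintro ⟨hbX, k, hk, hc⟩
          have hb' : k⁻¹ * b * k⁻¹⁻¹ ∈ X := hconjX k⁻¹ (inv_mem hk) b hbX
          have e1 : k⁻¹ * b * k⁻¹⁻¹ = k⁻¹ * b * k := by group
          rw [e1] at hb'
          refine ⟨k, k⁻¹ * b * k, ⟨(hmemK k).2 hk, (hmemD _).2 ⟨⟨((hmemX _).1 hb').1, ?_⟩,
            ((hmemX _).1 hb').2⟩⟩, by group⟩
          have e := hc.eq
          calc a * (k⁻¹ * b * k) = k⁻¹ * (k * a * k⁻¹ * b) * k := by group
            _ = k⁻¹ * (b * (k * a * k⁻¹)) * k := by rw [e]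
            _ = _ := by group
        · rintro ⟨k, b', ⟨hk, hb'⟩, rfl⟩
          rw [hmemK] at hk
          rw [hmemD] at hb'
          refine ⟨hconjX k hk b' ((hmemX b').2 ⟨hb'.1.1, hb'.2⟩), k, hk, ?_⟩
          have e := hb'.1.2
          show k * a * k⁻¹ * (k * b' * k⁻¹) = k * b' * k⁻¹ * (k * a * k⁻¹)
          calc k * a * k⁻¹ * (k * b' * k⁻¹) = k * (a * b') * k⁻¹ := by group
            _ = k * (b' * a) * k⁻¹ := by rw [e]
            _ = _ := by group
      rw [himg, Finset.card_image_of_injOn, Finset.card_product, hKf, hD]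
      rintro ⟨k, b⟩ hkb ⟨k', b'⟩ hkb' e
      have hkb1 := Finset.mem_product.1 (Finset.mem_coe.1 hkb)
      have hkb1' := Finset.mem_product.1 (Finset.mem_coe.1 hkb')
      have hk : k ∈ K := (hmemK k).1 hkb1.1
      have hk' : k' ∈ K := (hmemK k').1 hkb1'.1
      have hb := (hmemD b).1 hkb1.2
      have hb' := (hmemD b').1 hkb1'.2
      simp only at hb hb' e
      have e3 : k'⁻¹ * k * b * (k'⁻¹ * k)⁻¹ = b' := by
        calc k'⁻¹ * k * b * (k'⁻¹ * k)⁻¹ = k'⁻¹ * (k * b * k⁻¹) * k' := by group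
          _ = k'⁻¹ * (k' * b' * k'⁻¹) * k' := by rw [e]
          _ = b' := by group
      have hbb' : Commute b b' :=
        h.comm_trans haP haZ hb.1.1 hb'.1.1 hb.1.2 hb'.1.2
      have hl : k'⁻¹ * k = 1 := by
        by_contra hl
        exact hI (k'⁻¹ * k) (mul_mem (inv_mem hk') hk) hl b hb.1.1 hb.2 (e3 ▸ hbb')
      have hkk : k = k' := by
        have := inv_mul_eq_one.1 hl
        exact this.symm
      subst hkk
      have hbe : b = b' := by
        have := e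
        simpa using this
      rw [hbe]
  have hXc : X.card = p ^ 3 - p := by
    have hsub : (Finset.univ.filter (· ∈ zc P)) ⊆ (Finset.univ.filter (· ∈ P)) := by
      intro w hw
      simp only [Finset.mem_filter, Finset.mem_univ, true_and] at hw ⊢
      exact (mem_zc.1 hw).1
    have hXe : X = (Finset.univ.filter (· ∈ P)) \ (Finset.univ.filter (· ∈ zc P)) := by
      ext b
      simp only [hmemX, Finset.mem_sdiff, Finset.mem_filter, Finset.mem_univ, true_and]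
    rw [hXe, Finset.card_sdiff_of_subset hsub, hZf, card_filter_mem, h.hP]
  rw [hXc] at hdvd
  have harith : p ^ 3 - p = (p + 1) * (p ^ 2 - p) := by
    have h1 : p ≤ p ^ 2 := hp2.le
    have h2 : p ≤ p ^ 3 := by
      have := h.hp.one_lt
      nlinarith
    zify [h1, h2]
    ring
  rw [harith] at hdvd
  exact Nat.dvd_of_mul_dvd_mul_right (by omega) hdvd

/-- **Core of `PKI2c2`.** -/
theorem pkI2c2_core (p : ℕ) [hp : Fact p.Prime] (P K : Subgroup G)
    (hP : Nat.card ↥P = p ^ 3) (hna : ¬ IsMulCommutative ↥P)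
    (hKn : K ≤ Subgroup.normalizer (P : Set G)) (hKc : IsCyclic ↥K)
    (hKodd : Odd (Nat.card ↥K)) (hKcop : (Nat.card ↥K).Coprime p)
    (hfix : ∀ k ∈ K, k ≠ 1 → ∀ a ∈ P, k * a = a * k → ∀ b ∈ P, a * b = b * a)
    (hZ : ∀ k ∈ K, ∀ a ∈ P, (∀ b ∈ P, a * b = b * a) → k * a = a * k) :
    (∀ k ∈ K, k ^ (p - 1) = 1) ∨ Nat.card ↥K ∣ p + 1 := by
  obtain ⟨hZp, hcomm, hpow⟩ := structure_p3 p P hP hna
  have h : Cfg p P K :=
    { hp := hp.1
      hZp := hZp
      hP := hP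
      hcomm := hcomm
      hpow := hpow
      hKn := fun k hk a ha => ((Subgroup.mem_normalizer_iff).1 (hKn hk) a).1 ha
      hKcomm := by
        intro k hk l hl
        have := IsCyclic.commGroup (α := K)
        have e : (⟨k, hk⟩ : K) * ⟨l, hl⟩ = ⟨l, hl⟩ * ⟨k, hk⟩ := by
          obtain ⟨g, hg⟩ := IsCyclic.exists_generator (α := K)
          obtain ⟨m, hm⟩ := Subgroup.mem_zpowers_iff.1 (hg ⟨k, hk⟩)
          obtain ⟨n, hn⟩ := Subgroup.mem_zpowers_iff.1 (hg ⟨l, hl⟩)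
          rw [← hm, ← hn, ← zpow_add, ← zpow_add, add_comm]
        exact congrArg Subtype.val e
      hKodd := hKodd
      hKcop := hKcop
      hfix := fun k hk hk1 a ha e => mem_zc.2 ⟨ha, hfix k hk hk1 a ha e⟩
      hZ := fun k hk a ha => hZ k hk a (mem_zc.1 ha).1 (mem_zc.1 ha).2 }
  by_cases hI : ∀ k ∈ K, k ≠ 1 → ∀ a ∈ P, a ∉ zc P → ¬ Commute a (k * a * k⁻¹)
  · right; exact h.card_dvd hI
  · left
    push Not at hI
    obtain ⟨k₁, hk₁, hk₁1, a, ha, haZ, hc⟩ := hI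
    exact h.pow_pred ha haZ (h.all_norm hk₁ hk₁1 ha haZ hc)

end Main

end Cfsg.Agent.Lib.Helper72.BG40
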