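import Cfsg.Agent.Lib.Helper69.BG40.Defs
import Cfsg.Agent.Lib.Helper72.BG40.P3Core

/-!
# Package `PKI2c2` of the S1440 project (B&G 15.8)
-/

set_option autoImplicit false

namespace Cfsg.Agent.Lib.Helper72.BG40

universe u

/-- Package `PKI2c2`: a cyclic group `K` of odd order prime to `p` acting on a non-abelian group
`P` of order `p ^ 3`, centralizing `Z(P)` and with `C_P(k) ≤ Z(P)` for all `k ≠ 1`, has exponent
dividing `p - 1` or order dividing `p + 1`. -/
theorem pkI2c2 : Cfsg.Agent.Lib.Helper69.BG40.PKI2c2.{u} := by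
  intro G _ _ p _ _ P K hP hna hKn hKc hKodd hKcop hfix hZ
  exact pkI2c2_core p P K hP hna hKn hKc hKodd hKcop hfix hZ

end Cfsg.Agent.Lib.Helper72.BG40
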